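import Mathlib

/-!
# Krull–Remak–Schmidt for finite groups

* `Indec A`: `A` is not the internal direct product of two nontrivial normal subgroups.
* `fitting_sum`: if `f`, `g` are endomorphisms of a finite indecomposable group with
  `f a * g a = a` and commuting images, one of them is bijective.
* `IsFactor A X`: `A` is a normal retract (direct factor) of `X`.
* `exists_factor_iso`: an indecomposable direct factor of a product of indecomposables is
  isomorphic to one of the factors.
* `cancel`: cancellation of finite direct factors (hom counting).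
* `krs`: the Krull–Remak–Schmidt theorem.
-/

set_option autoImplicit false

namespace Cfsg.Agent.Lib.Helper70.KRS

universe u v w

/-- directly indecomposable (possibly trivial) -/
def Indec (A : Type*) [Group A] : Prop :=
  ∀ H K : Subgroup A, H.Normal → K.Normal → H ⊓ K = ⊥ → H ⊔ K = ⊤ → H = ⊥ ∨ K = ⊥

theorem exists_idem_iterate {S : Type*} [Finite S] (f : S → S) :
    ∃ N : ℕ, 0 < N ∧ ∀ a, f^[N] (f^[N] a) = f^[N] a := by
  have key : ∀ i j : ℕ, i < j → f^[i] = f^[j] →
      ∃ N : ℕ, 0 < N ∧ ∀ a, f^[N] (f^[N] a) = f^[N] a := by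
    intro i j hlt he
    obtain ⟨d, rfl⟩ : ∃ d, j = i + d := ⟨j - i, by omega⟩
    have hd : 0 < d := by omega
    have h1 : ∀ k, i ≤ k → f^[k + d] = f^[k] := by
      intro k hk
      obtain ⟨c, rfl⟩ : ∃ c, k = c + i := ⟨k - i, by omega⟩
      rw [add_assoc, Function.iterate_add, ← he, ← Function.iterate_add]
    have h2 : ∀ t k, i ≤ k → f^[k + t * d] = f^[k] := by
      intro t
      induction t with
      | zero => intro k _; simp
      | succ t ih =>
        intro k hk
        have e1 : k + (t + 1) * d = (k + t * d) + d := by ring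
        rw [e1, h1 _ (by omega), ih k hk]
    have h3 : i ≤ (i + 1) * d := by nlinarith
    refine ⟨(i + 1) * d, Nat.mul_pos (Nat.succ_pos i) hd, fun a => ?_⟩
    rw [← Function.iterate_add_apply, h2 (i + 1) ((i + 1) * d) h3]
  obtain ⟨i, j, hij, he⟩ := Finite.exists_ne_map_eq_of_infinite (fun k : ℕ => f^[k])
  rcases lt_or_gt_of_ne hij with h | h
  · exact key i j h he
  · exact key j i h he.symm

/-- the `n`-th iterate of an endomorphism -/
def iterHom {A : Type*} [Group A] (f : A →* A) : ℕ → (A →* A)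
  | 0 => MonoidHom.id A
  | n + 1 => f.comp (iterHom f n)

theorem iterHom_apply {A : Type*} [Group A] (f : A →* A) (n : ℕ) (a : A) :
    iterHom f n a = (f : A → A)^[n] a := by
  induction n with
  | zero => rfl
  | succ n ih => rw [Function.iterate_succ_apply', ← ih]; rfl

/-- Fitting-type lemma. -/
theorem fitting_sum {A : Type*} [Group A] [Finite A] (hA : Indec A) (f g : A →* A)
    (h1 : ∀ a, f a * g a = a) (h2 : ∀ a b, f a * g b = g b * f a) :
    Function.Bijective f ∨ Function.Bijective g := by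
  -- `f` is a normal endomorphism
  have hfn : ∀ a b, f (b * a * b⁻¹) = b * f a * b⁻¹ := by
    intro a b
    have e1 : g b * f a * (g b)⁻¹ = f a := by rw [← h2, mul_inv_cancel_right]
    calc f (b * a * b⁻¹) = f b * f a * (f b)⁻¹ := by rw [map_mul, map_mul, map_inv]
      _ = f b * (g b * f a * (g b)⁻¹) * (f b)⁻¹ := by rw [e1]
      _ = (f b * g b) * f a * (f b * g b)⁻¹ := by group
      _ = b * f a * b⁻¹ := by rw [h1]
  obtain ⟨N, hN, hidem⟩ := exists_idem_iterate (f : A → A)
  obtain ⟨h, hh⟩ : ∃ h : A →* A, ∀ a, h a = (f : A → A)^[N] a :=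
    ⟨iterHom f N, iterHom_apply f N⟩
  have hhn : ∀ a b, h (b * a * b⁻¹) = b * h a * b⁻¹ := by
    have : ∀ n : ℕ, ∀ a b, (f : A → A)^[n] (b * a * b⁻¹) = b * (f : A → A)^[n] a * b⁻¹ := by
      intro n
      induction n with
      | zero => intro a b; rfl
      | succ n ih =>
        intro a b
        rw [Function.iterate_succ_apply', Function.iterate_succ_apply', ih, hfn]
    intro a b
    rw [hh, hh, this]
  have hhidem : ∀ a, h (h a) = h a := by
    intro a
    rw [hh, hh, hidem]
  have hRn : h.range.Normal := by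
    refine ⟨fun x hx b => ?_⟩
    obtain ⟨a, rfl⟩ := hx
    exact ⟨b * a * b⁻¹, hhn a b⟩
  have hinf : h.ker ⊓ h.range = ⊥ := by
    rw [eq_bot_iff]
    intro x hx
    obtain ⟨hx1, hx2⟩ := Subgroup.mem_inf.mp hx
    obtain ⟨y, rfl⟩ := hx2
    rw [MonoidHom.mem_ker, hhidem] at hx1
    exact Subgroup.mem_bot.mpr hx1
  have hsup : h.ker ⊔ h.range = ⊤ := by
    rw [eq_top_iff]
    intro a _
    have e1 : a = (a * (h a)⁻¹) * h a := by group
    rw [e1]
    refine Subgroup.mul_mem_sup ?_ ⟨a, rfl⟩
    rw [MonoidHom.mem_ker, map_mul, map_inv, hhidem, mul_inv_cancel]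
  rcases hA h.ker h.range (MonoidHom.normal_ker h) hRn hinf hsup with hk | hr
  · left
    rw [← Finite.injective_iff_bijective]
    have hinj : Function.Injective h := (MonoidHom.ker_eq_bot_iff h).mp hk
    have hinj' : Function.Injective ((f : A → A)^[N]) := by
      intro a b hab
      apply hinj
      rw [hh, hh, hab]
    obtain ⟨M, rfl⟩ : ∃ M, N = M + 1 := ⟨N - 1, by omega⟩
    rw [Function.iterate_succ] at hinj'
    exact Function.Injective.of_comp hinj'
  · right
    rw [← Finite.injective_iff_bijective]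
    rw [injective_iff_map_eq_one]
    intro a ha
    have e1 : f a = a := by
      have := h1 a
      rw [ha, mul_one] at this
      exact this
    have e2 : h a = a := by rw [hh]; exact Function.iterate_fixed e1 N
    have e3 : h a ∈ h.range := ⟨a, rfl⟩
    rw [hr, Subgroup.mem_bot] at e3
    rw [← e2, e3]

/-- `A` is a normal retract of `X`. -/
def IsFactor (A : Type*) (X : Type*) [Group A] [Group X] : Prop :=
  ∃ (α : A →* X) (γ : X →* A), Function.Bijective (γ.comp α) ∧ α.range.Normal

theorem isFactor_prod (A : Type*) (C : Type*) [Group A] [Group C] : IsFactor A (A × C) := by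
  refine ⟨MonoidHom.inl A C, MonoidHom.fst A C, ?_, ?_⟩
  · have : (MonoidHom.fst A C).comp (MonoidHom.inl A C) = MonoidHom.id A := by
      ext a; rfl
    rw [this]
    exact Function.bijective_id
  · refine ⟨fun x hx u => ?_⟩
    obtain ⟨a, rfl⟩ := hx
    refine ⟨u.1 * a * u.1⁻¹, ?_⟩
    ext <;> simp

theorem IsFactor.congr {A : Type*} {X : Type*} {X' : Type*} [Group A] [Group X] [Group X']
    (h : IsFactor A X) (e : X ≃* X') : IsFactor A X' := by
  obtain ⟨α, γ, hb, hn⟩ := h
  refine ⟨e.toMonoidHom.comp α, γ.comp e.symm.toMonoidHom, ?_, ?_⟩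
  · have : (γ.comp e.symm.toMonoidHom).comp (e.toMonoidHom.comp α) = γ.comp α := by
      ext a; simp
    rw [this]; exact hb
  · refine ⟨fun x hx u => ?_⟩
    obtain ⟨a, rfl⟩ := hx
    have h1 : e.symm u * α a * (e.symm u)⁻¹ ∈ α.range := hn.conj_mem _ ⟨a, rfl⟩ _
    obtain ⟨a', ha'⟩ := h1
    refine ⟨a', ?_⟩
    show e (α a') = u * e (α a) * u⁻¹
    rw [ha']
    simp

/-- binary exchange -/
theorem IsFactor.prod_cases {A : Type*} {X : Type*} {Y : Type*} [Group A] [Group X] [Group Y]
    [Finite A] (hA : Indec A) (h : IsFactor A (X × Y)) : IsFactor A X ∨ IsFactor A Y := by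
  obtain ⟨α, γ, hb, hn⟩ := h
  -- normalise `γ ∘ α = id`
  obtain ⟨θ, hθ⟩ : ∃ θ : A ≃* A, ∀ a, θ a = γ (α a) :=
    ⟨MulEquiv.ofBijective (γ.comp α) hb, fun a => rfl⟩
  obtain ⟨γ₀, hγ₀⟩ : ∃ γ₀ : X × Y →* A, ∀ x, γ₀ x = θ.symm (γ x) :=
    ⟨θ.symm.toMonoidHom.comp γ, fun x => rfl⟩
  have h0 : ∀ a, γ₀ (α a) = a := by
    intro a
    rw [hγ₀, ← hθ, MulEquiv.symm_apply_apply]
  obtain ⟨f, hf⟩ : ∃ f : A →* A, ∀ a, f a = γ₀ (MonoidHom.inl X Y (α a).1) :=
    ⟨γ₀.comp ((MonoidHom.inl X Y).comp ((MonoidHom.fst X Y).comp α)), fun a => rfl⟩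
  obtain ⟨g, hg⟩ : ∃ g : A →* A, ∀ a, g a = γ₀ (MonoidHom.inr X Y (α a).2) :=
    ⟨γ₀.comp ((MonoidHom.inr X Y).comp ((MonoidHom.snd X Y).comp α)), fun a => rfl⟩
  have h1 : ∀ a, f a * g a = a := by
    intro a
    rw [hf, hg, ← map_mul]
    have : MonoidHom.inl X Y (α a).1 * MonoidHom.inr X Y (α a).2 = α a := by
      ext <;> simp
    rw [this, h0]
  have h2 : ∀ a b, f a * g b = g b * f a := by
    intro a b
    rw [hf, hg, ← map_mul, ← map_mul, (MonoidHom.commute_inl_inr (α a).1 (α b).2).eq]
  rcases fitting_sum hA f g h1 h2 with hfb | hgb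
  · left
    refine ⟨(MonoidHom.fst X Y).comp α, γ₀.comp (MonoidHom.inl X Y), ?_, ?_⟩
    · have : (γ₀.comp (MonoidHom.inl X Y)).comp ((MonoidHom.fst X Y).comp α) = f := by
        ext a; rw [hf]; rfl
      rw [this]; exact hfb
    · refine ⟨fun x hx u => ?_⟩
      obtain ⟨a, rfl⟩ := hx
      have h3 : (u, (1 : Y)) * α a * (u, (1 : Y))⁻¹ ∈ α.range := hn.conj_mem _ ⟨a, rfl⟩ _
      obtain ⟨a', ha'⟩ := h3
      refine ⟨a', ?_⟩
      show (α a').1 = u * (α a).1 * u⁻¹
      rw [ha']
      rfl
  · right
    refine ⟨(MonoidHom.snd X Y).comp α, γ₀.comp (MonoidHom.inr X Y), ?_, ?_⟩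
    · have : (γ₀.comp (MonoidHom.inr X Y)).comp ((MonoidHom.snd X Y).comp α) = g := by
        ext a; rw [hg]; rfl
      rw [this]; exact hgb
    · refine ⟨fun x hx u => ?_⟩
      obtain ⟨a, rfl⟩ := hx
      have h3 : ((1 : X), u) * α a * ((1 : X), u)⁻¹ ∈ α.range := hn.conj_mem _ ⟨a, rfl⟩ _
      obtain ⟨a', ha'⟩ := h3
      refine ⟨a', ?_⟩
      show (α a').2 = u * (α a).2 * u⁻¹
      rw [ha']
      rfl

/-- a nontrivial direct factor of an indecomposable group is the whole group -/
theorem IsFactor.iso_of_indec {A : Type*} {X : Type*} [Group A] [Group X] [Nontrivial A]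
    (h : IsFactor A X) (hX : Indec X) : Nonempty (A ≃* X) := by
  obtain ⟨α, γ, hb, hn⟩ := h
  have hinf : α.range ⊓ γ.ker = ⊥ := by
    rw [eq_bot_iff]
    intro x hx
    obtain ⟨hx1, hx2⟩ := Subgroup.mem_inf.mp hx
    obtain ⟨a, rfl⟩ := hx1
    rw [MonoidHom.mem_ker] at hx2
    have : a = 1 := hb.1 (by rw [MonoidHom.comp_apply, hx2, map_one])
    rw [this, map_one]; exact Subgroup.mem_bot.mpr rfl
  have hsup : α.range ⊔ γ.ker = ⊤ := by
    rw [eq_top_iff]
    intro x _
    obtain ⟨a, ha⟩ := hb.2 (γ x)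
    have e1 : x = α a * ((α a)⁻¹ * x) := by group
    rw [e1]
    refine Subgroup.mul_mem_sup ⟨a, rfl⟩ ?_
    rw [MonoidHom.mem_ker, map_mul, map_inv, ← ha, MonoidHom.comp_apply, inv_mul_cancel]
  rcases hX α.range γ.ker hn (MonoidHom.normal_ker γ) hinf hsup with hr | hk
  · exfalso
    obtain ⟨a, ha⟩ := exists_ne (1 : A)
    apply ha
    apply hb.1
    have e1 : α a ∈ α.range := ⟨a, rfl⟩
    rw [hr, Subgroup.mem_bot] at e1
    rw [MonoidHom.comp_apply, e1, map_one, map_one]
  · have hinj : Function.Injective γ := (MonoidHom.ker_eq_bot_iff γ).mp hk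
    have hsurj : Function.Surjective γ := by
      intro a
      obtain ⟨a', ha'⟩ := hb.2 a
      exact ⟨α a', ha'⟩
    exact ⟨(MulEquiv.ofBijective γ ⟨hinj, hsurj⟩).symm⟩

/-- split off the `j`-th coordinate -/
def piSplit {n : ℕ} (B : Fin (n + 1) → Type*) [∀ j, Group (B j)] (j : Fin (n + 1)) :
    ((k : Fin (n + 1)) → B k) ≃* B j × ((k : Fin n) → B (j.succAbove k)) where
  toFun x := (x j, fun k => x (j.succAbove k))
  invFun p := j.insertNth p.1 p.2
  left_inv x := Fin.insertNth_self_removeNth j x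
  right_inv p := by
    ext k
    · simp
    · simp
  map_mul' x y := rfl

/-- an indecomposable direct factor of a product of indecomposables is one of the factors -/
theorem exists_factor_iso {A : Type u} [Group A] [Finite A] [Nontrivial A] (hA : Indec A)
    (n : ℕ) : ∀ (B : Fin n → Type v) [∀ j, Group (B j)], (∀ j, Indec (B j)) →
      IsFactor A ((j : Fin n) → B j) → ∃ j, Nonempty (A ≃* B j) := by
  induction n with
  | zero =>
    intro B _ hB hF
    exfalso
    obtain ⟨α, γ, hb, -⟩ := hF
    obtain ⟨a, ha⟩ := exists_ne (1 : A)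
    apply ha
    apply hb.1
    rw [MonoidHom.comp_apply, MonoidHom.comp_apply, Subsingleton.elim (α a) (α 1)]
  | succ n ih =>
    intro B _ hB hF
    have hF' := hF.congr (piSplit B 0)
    rcases hF'.prod_cases hA with h | h
    · exact ⟨0, h.iso_of_indec (hB 0)⟩
    · obtain ⟨j, hj⟩ := ih (fun k => B (Fin.succAbove 0 k)) (fun k => hB _) h
      exact ⟨Fin.succAbove 0 j, hj⟩

section Cancel

variable {H : Type*} [Group H]

/-- number of homomorphisms `H → X` killing `N` -/
noncomputable def homCount (N : Subgroup H) (X : Type*) [Group X] : ℕ :=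
  Nat.card {f : H →* X // N ≤ f.ker}

/-- number of homomorphisms `H → X` with kernel `N` -/
noncomputable def injCount (N : Subgroup H) (X : Type*) [Group X] : ℕ :=
  Nat.card {f : H →* X // f.ker = N}

theorem finite_hom [Finite H] (X : Type*) [Group X] [Finite X] : Finite (H →* X) :=
  Finite.of_injective (fun f : H →* X => (f : H → X)) DFunLike.coe_injective

theorem homCount_congr (N : Subgroup H) {X : Type*} {X' : Type*} [Group X] [Group X']
    (e : X ≃* X') : homCount N X = homCount N X' := by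
  have hker : ∀ f : H →* X, (e.toMonoidHom.comp f).ker = f.ker := by
    intro f; ext x; simp [MonoidHom.mem_ker]
  have hker' : ∀ f : H →* X', (e.symm.toMonoidHom.comp f).ker = f.ker := by
    intro f; ext x; simp [MonoidHom.mem_ker]
  exact Nat.card_congr
    { toFun := fun f => ⟨e.toMonoidHom.comp f.1, by rw [hker]; exact f.2⟩
      invFun := fun f => ⟨e.symm.toMonoidHom.comp f.1, by rw [hker']; exact f.2⟩
      left_inv := fun f => Subtype.ext (by ext x; simp)
      right_inv := fun f => Subtype.ext (by ext x; simp) }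

theorem homCount_prod (N : Subgroup H) (X : Type*) (Y : Type*) [Group X] [Group Y] :
    homCount N (X × Y) = homCount N X * homCount N Y := by
  unfold homCount
  rw [← Nat.card_prod]
  have h1 : ∀ f : H →* X × Y, N ≤ f.ker → N ≤ ((MonoidHom.fst X Y).comp f).ker := by
    intro f hf x hx
    rw [MonoidHom.mem_ker, MonoidHom.comp_apply, MonoidHom.mem_ker.mp (hf hx)]
    rfl
  have h2 : ∀ f : H →* X × Y, N ≤ f.ker → N ≤ ((MonoidHom.snd X Y).comp f).ker := by
    intro f hf x hx
    rw [MonoidHom.mem_ker, MonoidHom.comp_apply, MonoidHom.mem_ker.mp (hf hx)]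
    rfl
  exact Nat.card_congr
    { toFun := fun f => (⟨(MonoidHom.fst X Y).comp f.1, h1 f.1 f.2⟩,
        ⟨(MonoidHom.snd X Y).comp f.1, h2 f.1 f.2⟩)
      invFun := fun p => ⟨p.1.1.prod p.2.1, by
        rw [MonoidHom.ker_prod]; exact le_inf p.1.2 p.2.2⟩
      left_inv := fun f => Subtype.ext (by ext x <;> rfl)
      right_inv := fun p => by
        ext x
        · rfl
        · rfl }

theorem homCount_eq_sum [Finite H] [Fintype (Subgroup H)] (N : Subgroup H)
    [DecidablePred fun N' : Subgroup H => N ≤ N'] (X : Type*) [Group X] [Finite X] :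
    homCount N X = ∑ N' ∈ Finset.univ.filter (fun N' : Subgroup H => N ≤ N'), injCount N' X := by
  classical
  have : Finite (H →* X) := finite_hom X
  let _ : Fintype (H →* X) := Fintype.ofFinite _
  have h1 : homCount N X = (Finset.univ.filter (fun f : H →* X => N ≤ f.ker)).card := by
    unfold homCount
    rw [Nat.card_eq_fintype_card, Fintype.card_subtype]
  have h2 : ∀ N' : Subgroup H,
      injCount N' X = (Finset.univ.filter (fun f : H →* X => f.ker = N')).card := by
    intro N'
    unfold injCount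
    rw [Nat.card_eq_fintype_card, Fintype.card_subtype]
  rw [h1, Finset.card_eq_sum_card_fiberwise (f := fun f : H →* X => f.ker)
    (t := Finset.univ.filter (fun N' : Subgroup H => N ≤ N')) ?_]
  · apply Finset.sum_congr rfl
    intro N' hN'
    rw [h2]
    congr 1
    ext f
    simp only [Finset.mem_filter, Finset.mem_univ, true_and]
    constructor
    · rintro ⟨-, h⟩; exact h
    · intro h
      refine ⟨?_, h⟩
      rw [h]; exact (Finset.mem_filter.mp hN').2
  · intro f hf
    simp only [Finset.coe_filter, Finset.mem_univ, true_and, Set.mem_ofPred_eq] at hf ⊢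
    exact hf

/-- **Cancellation** of finite direct factors. -/
theorem cancel [Finite H] {G₁ : Type*} {G₂ : Type*} {K : Type*} [Group G₁] [Group G₂] [Group K]
    [Finite G₁] [Finite G₂] [Finite K] (φ : G₁ × H ≃* G₂ × K) (ψ : G₁ ≃* G₂) :
    Nonempty (H ≃* K) := by
  classical
  let _ : Fintype (Subgroup H) := Fintype.ofFinite _
  have hhom : ∀ N : Subgroup H, homCount N H = homCount N K := by
    intro N
    have e1 : homCount N (G₁ × H) = homCount N (G₂ × K) := homCount_congr N φ
    rw [homCount_prod, homCount_prod, ← homCount_congr N ψ] at e1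
    have hpos : 0 < homCount N G₁ := by
      unfold homCount
      have : Finite (H →* G₁) := finite_hom G₁
      have : Nonempty {f : H →* G₁ // N ≤ f.ker} :=
        ⟨⟨1, by rw [MonoidHom.ker_one]; exact le_top⟩⟩
      exact Nat.card_pos
    exact Nat.eq_of_mul_eq_mul_left hpos e1
  have hinj : ∀ N : Subgroup H, injCount N H = injCount N K := by
    intro N
    refine WellFoundedGT.induction (motive := fun N => injCount N H = injCount N K) N ?_
    intro N ih
    have e1 := homCount_eq_sum N H
    have e2 := homCount_eq_sum N K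
    have hmem : N ∈ Finset.univ.filter (fun N' : Subgroup H => N ≤ N') := by simp
    rw [← Finset.add_sum_erase _ _ hmem] at e1 e2
    have e3 : ∑ N' ∈ (Finset.univ.filter (fun N' : Subgroup H => N ≤ N')).erase N, injCount N' H
        = ∑ N' ∈ (Finset.univ.filter (fun N' : Subgroup H => N ≤ N')).erase N,
            injCount N' K := by
      apply Finset.sum_congr rfl
      intro N' hN'
      rw [Finset.mem_erase, Finset.mem_filter] at hN'
      exact ih N' (lt_of_le_of_ne hN'.2.2 (Ne.symm hN'.1))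
    have e4 := hhom N
    omega
  have h1 : 0 < injCount (⊥ : Subgroup H) H := by
    unfold injCount
    have : Finite (H →* H) := finite_hom H
    have : Nonempty {f : H →* H // f.ker = ⊥} := ⟨⟨MonoidHom.id H, MonoidHom.ker_id⟩⟩
    exact Nat.card_pos
  rw [hinj] at h1
  have h2 : Nonempty {f : H →* K // f.ker = ⊥} := by
    by_contra hne
    rw [not_nonempty_iff] at hne
    unfold injCount at h1
    rw [Nat.card_of_isEmpty] at h1
    exact lt_irrefl _ h1
  obtain ⟨f, hf⟩ := h2
  have hfinj : Function.Injective f := (MonoidHom.ker_eq_bot_iff f).mp hf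
  have hcard : Nat.card K ≤ Nat.card H := by
    have e1 : Nat.card (G₁ × H) = Nat.card (G₂ × K) := Nat.card_congr φ.toEquiv
    rw [Nat.card_prod, Nat.card_prod, ← Nat.card_congr ψ.toEquiv] at e1
    exact (Nat.eq_of_mul_eq_mul_left Nat.card_pos e1).ge
  exact ⟨MulEquiv.ofBijective f (hfinj.bijective_of_nat_card_le hcard)⟩

end Cancel

/-- **Krull–Remak–Schmidt** for finite groups. -/
theorem krs (m : ℕ) : ∀ (A : Fin m → Type u) [∀ i, Group (A i)] [∀ i, Finite (A i)],
    (∀ i, Nontrivial (A i) ∧ Indec (A i)) →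
    ∀ (n : ℕ) (B : Fin n → Type v) [∀ j, Group (B j)] [∀ j, Finite (B j)],
    (∀ j, Nontrivial (B j) ∧ Indec (B j)) →
    (((i : Fin m) → A i) ≃* ((j : Fin n) → B j)) →
    ∃ σ : Fin m ≃ Fin n, ∀ i, Nonempty (A i ≃* B (σ i)) := by
  induction m with
  | zero =>
    intro A _ _ hA n B _ _ hB e
    cases n with
    | zero => exact ⟨Equiv.refl _, fun i => i.elim0⟩
    | succ n =>
      exfalso
      have := (hB 0).1
      obtain ⟨b, hb⟩ := exists_ne (1 : B 0)
      apply hb
      have h1 : e.symm (Pi.mulSingle 0 b) = e.symm 1 := Subsingleton.elim _ _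
      have h2 := e.symm.injective h1
      have h3 := congrFun h2 0
      simpa using h3
  | succ m ih =>
    intro A _ _ hA n B _ _ hB e
    have := (hA 0).1
    have hF : IsFactor (A 0) ((j : Fin n) → B j) :=
      (isFactor_prod (A 0) ((k : Fin m) → A (Fin.succAbove 0 k))).congr
        ((piSplit A 0).symm.trans e)
    obtain ⟨j, ⟨ψ⟩⟩ := exists_factor_iso (hA 0).2 n B (fun j => (hB j).2) hF
    cases n with
    | zero => exact j.elim0
    | succ n =>
      obtain ⟨χ⟩ := cancel (((piSplit A 0).symm.trans e).trans (piSplit B j)) ψ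
      obtain ⟨τ, hτ⟩ := ih (fun k => A (Fin.succAbove 0 k)) (fun k => hA _) n
        (fun k => B (j.succAbove k)) (fun k => hB _) χ
      refine ⟨(finSuccEquiv' 0).trans ((Equiv.optionCongr τ).trans (finSuccEquiv' j).symm), ?_⟩
      intro i
      rcases Fin.eq_self_or_eq_succAbove 0 i with rfl | ⟨k, rfl⟩
      · have h1 : ((finSuccEquiv' (0 : Fin (m + 1))).trans
            ((Equiv.optionCongr τ).trans (finSuccEquiv' j).symm)) 0 = j := by
          rw [Equiv.trans_apply, Equiv.trans_apply, finSuccEquiv'_at,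
            Equiv.optionCongr_apply, Option.map_none, finSuccEquiv'_symm_none]
        rw [h1]; exact ⟨ψ⟩
      · have h1 : ((finSuccEquiv' (0 : Fin (m + 1))).trans
            ((Equiv.optionCongr τ).trans (finSuccEquiv' j).symm)) (Fin.succAbove 0 k)
              = j.succAbove (τ k) := by
          rw [Equiv.trans_apply, Equiv.trans_apply, finSuccEquiv'_succAbove,
            Equiv.optionCongr_apply, Option.map_some, finSuccEquiv'_symm_some]
        rw [h1]; exact hτ k

end Cfsg.Agent.Lib.Helper70.KRS
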